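import Cfsg.Agent.Lib.Grp.OneBlock
import Cfsg.Agent.Lib.Grp.Tst

/-! A certificate, over a list of conjugacy classes, that a group has a single 2-block. -/

set_option autoImplicit false

namespace Cfsg.Lib.Grp

open Cfsg.Lib.Calc Cfsg.Lib.Mathieu MulAction Subgroup Cfsg.Lib.Block
open Cfsg.Lib.Golay (force force_eq)

variable {G X : Type*} [Group G] [MulAction G X] {n w : ℕ} {pt : ℕ → X}

/-- the word `x y x y … x` with `k + 1` letters `x` -/
def altW (k : ℕ) : List Bool := Nat.rec [false] (fun _ ih => false :: true :: ih) k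

theorem evW_altW (x y a : G) (k : ℕ) : evW x y (altW k) a = a * x * (y * x) ^ k := by
  induction k generalizing a with
  | zero => simp [altW, evW]
  | succ k ih =>
    show evW x y (altW k) (a * x * y) = _
    rw [ih, pow_succ']
    simp only [mul_assoc]

/-- `y * x` has order `k + 1` (a prime) -/
noncomputable def ordW (n w c k d : ℕ) : Bool := relOK n w c [(altW 0, false), (altW k, true)] d

theorem ordW_iff (hi : Inj n pt) (hf : Faithful G n pt) (hn : 2 ≤ n) (hw : n ≤ 2 ^ w) {x y : G} {c d k : ℕ}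
    (hk : (k + 1).Prime) (hx : Rep n w pt x c) (hy : Rep n w pt y d) :
    orderOf (y * x) = k + 1 ↔ ordW n w c k d = true := by
  have := Fact.mk hk
  rw [ordW, relOK_iff hi hf hn hw hx hy, orderOf_eq_prime_iff]
  simp only [List.mem_cons, List.not_mem_nil, or_false, forall_eq_or_imp, forall_eq, evW_altW, ← pow_succ']
  simp [and_comm]

theorem Classes.sameBlock_two [Finite G] (hi : Inj n pt) (hf : Faithful G n pt) (hn : 2 ≤ n) (hw : n ≤ 2 ^ w)
    {L : List (ℕ × List ℕ)} (hL : Chn n w pt L (⊤ : Subgroup G)) {l : List (ℕ × ℕ)}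
    (hc : Classes n w pt (⊤ : Subgroup G) l) {B : ℕ}
    (h1 : ∀ p ∈ l.filter fun p => Nat.beq (ordC n w p.1 B) 2,
      Constr 2 (centralizer ({dec (Rep n w pt) p.1} : Set G)))
    {d z : ℕ} (hd : (d, z) ∈ l) {k : ℕ} (hk : (k + 1).Prime) {r : ℕ × ℕ} {ks : List ℕ}
    (e1 : allP l (fun q => force (ordC n w q.1 B) fun o => band (!Nat.beq o 0)
      (bor (!band (Nat.beq o (k + 1)) true) (band (Nat.beq q.1 r.1) (Nat.beq q.2 r.2)))) = true)
    (e2 : band (band (Nat.beq (ordC n w d B) 2) (Nat.beq (ordC n w r.1 B) (k + 1))) (allP l fun p =>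
      bor (bor (Nat.beq (p.2 % 2) 0) (Nat.beq p.1 r.1))
        (band (invB n w p.1) (!trAny n w L ks p.1 (invC n w p.1)))) = true)
    {gs is : List ℕ} (hg : In n w pt (⊤ : Subgroup G) gs) {h : ℕ → ℕ}
    (h2 : ∀ p ∈ l.filter fun p => Nat.beq (p.2 % 2) 1, ∃ m, cntCl n w gs is h (ordW n w p.1 k) (chSize L / z) d m = true ∧
      (m % 2 = 1 ↔ p.1 = r.1))
    {M : Ideal AlgInt} (hM : IsPModular 2 M) (χ ψ : IrrCharacter G) : SameBlock M (χ : G → ℂ) ψ := by
  have : Modular 2 M := ⟨hM⟩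
  rw [band_eq_true, band_eq_true, beq_iff, beq_iff] at e2
  have ho : ∀ p ∈ l, orderOf (dec (G := G) (Rep n w pt) p.1) = ordC n w p.1 B := fun p hp =>
    orderOf_eq_ordC hi hf hw (hc.rep p hp).2 fun e => by
      have := allP_iff.1 e1 p hp
      rw [force_eq, band_eq_true, e] at this
      exact Bool.noConfusion this.1
  have hodd : ∀ x : G, ¬ 2 ∣ Nat.card (centralizer ({x} : Set G)) →
      ∃ p ∈ l, p.2 % 2 = 1 ∧ x ∈ cl ⊤ (dec (Rep n w pt) p.1) := fun x hx => by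
    obtain ⟨p, hp, a⟩ := hc.cover x trivial
    refine ⟨p, hp, ?_, a⟩
    rw [← hc.cent p hp, ← card_cen_of_mem_cl a, top_inf_eq]
    omega
  refine Grp.sameBlock_two (t := dec (Rep n w pt) d) (fun x hx => ?_) ((ho _ hd).trans e2.1.1)
    (fun x hx hx' u hu => ?_) χ ψ
  · obtain ⟨p, hp, a⟩ := hc.cover x trivial
    have := h1 p (List.mem_filter.2 ⟨hp, by rw [← ho p hp, ← orderOf_of_mem_cl a, hx]; rfl⟩)
    obtain ⟨g, -, rfl⟩ := a
    exact this.congr cj_cen.equiv
  obtain ⟨p, hp, a, b⟩ := hodd x hx'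
  have hr : p.1 = r.1 := by
    have := allP_iff.1 e2.2 p hp
    rw [a] at this
    by_contra hne
    rw [show Nat.beq p.1 r.1 = false from Bool.eq_false_iff.2 fun e => hne (beq_iff.1 e)] at this
    have := band_eq_true.1 this
    have c := (trAny_iff hi hf hn hw hL (hc.rep p hp).2 ((hc.rep p hp).2.invC hw this.1) ks).2 (by
      obtain ⟨g, -, rfl⟩ := b
      obtain ⟨j, -, e⟩ := isConj_iff_mem_cl.1 hx
      refine ⟨g⁻¹ * j * g, trivial, ?_⟩
      have := congrArg (fun y => g⁻¹ * y * g) e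
      simpa [mul_assoc] using this)
    simp [c] at this
  have hord : ∀ y : G, IsConj x y ↔ orderOf y = k + 1 := fun y => by
    rw [isConj_iff_mem_cl, cl_eq b]
    refine ⟨fun e => (orderOf_of_mem_cl e).trans ((ho p hp).trans (hr ▸ e2.1.2)), fun e => ?_⟩
    exact hr ▸ (hc.uniq hi hf hw (t := fun _ => true) e1 (mem_top y) e rfl).1
  obtain ⟨q, hq, a', g, -, rfl⟩ := hodd u hu
  obtain ⟨m, c, c'⟩ := h2 q (List.mem_filter.2 ⟨hq, by rw [a']; rfl⟩)
  have c := ncard_cl_filter hi hf hn hw hg (P := fun y : G => orderOf (y * dec (Rep n w pt) q.1) = k + 1)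
    (fun y _ _ hy => ordW_iff hi hf hn hw hk (hc.rep q hq).2 hy) (hc.rep _ hd).2
    (by rw [hc.ncard_cl hd, hL.card hi]) c
  have c2 : {s | IsConj (dec (G := G) (Rep n w pt) d) s ∧ IsConj x (s * (g * dec (Rep n w pt) q.1 * g⁻¹))}.ncard = m := by
    rw [← c]
    refine Set.ncard_congr (fun s _ => g⁻¹ * s * g) (fun s hs => ⟨?_, ?_⟩) (fun s s' _ _ e => by simpa using e)
      fun s hs => ⟨g * s * g⁻¹, ⟨?_, ?_⟩, by simp [mul_assoc]⟩
    · exact isConj_iff_mem_cl.1 (hs.1.trans (isConj_iff.2 ⟨g⁻¹, by simp⟩))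
    · exact (hord _).1 (hs.2.trans (isConj_iff.2 ⟨g⁻¹, by simp [mul_assoc]⟩))
    · exact (isConj_iff_mem_cl.2 hs.1).trans (isConj_iff.2 ⟨g, rfl⟩)
    · exact ((hord _).2 hs.2).trans (isConj_iff.2 ⟨g, by simp [mul_assoc]⟩)
  rw [c2, Nat.odd_iff, c', ← hr]
  refine ⟨fun e => ?_, fun e => ?_⟩
  · exact isConj_iff_mem_cl.2 (cl_trans (cl_symm b) (e ▸ conj_mem_cl trivial))
  · exact congrArg Prod.fst (hc.eq_of_mem_cl hq hp
      (cl_trans (conj_mem_cl (k := g) trivial) (cl_trans (isConj_iff_mem_cl.1 e.symm) (cl_symm b))))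

end Cfsg.Lib.Grp
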